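import Cfsg.Agent.H97.JmDefs

/-! The Sylow congruences for the five large primes. -/

set_option autoImplicit false

namespace Cfsg.Agent.H97.JM

open Subgroup

universe u

namespace OK

theorem cg_of (hCONG : CONG.{u}) {G : Type u} [Group G] [Finite G] (hG : Ctx G) (H : Subgroup G)
    (p e : ℕ) (hp : p.Prime) (hm : (p, e) ∈ [(23, 22), (29, 28), (31, 10), (37, 12), (43, 14)])
    (h2 : ¬ p ^ 2 ∣ 86775571046077562880) (ds : List ℕ) (hds : ∀ d, d ∣ e → d ∈ ds) :
    cg (Nat.card H) p ds = true := by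
  unfold cg
  by_cases hd : p ∣ Nat.card H
  · haveI := Fact.mk hp
    obtain ⟨a, ha⟩ := exists_prime_orderOf_dvd_card' (G := H) p hd
    have ha' : orderOf (a : G) = p := by rw [Subgroup.orderOf_coe]; exact ha
    have hn : ¬ p ^ 2 ∣ Nat.card H := fun h => h2 (by
      rw [← hG.card]; exact h.trans (Subgroup.card_subgroup_dvd_card H))
    obtain ⟨d, -, h1, h3, h4⟩ := hCONG G H p e a hp a.2 ha' hn (hG.big p e hm a ha').2
    rw [Bool.or_eq_true]
    right
    rw [List.any_eq_true]
    refine ⟨d, hds d h1, ?_⟩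
    rw [Bool.and_eq_true, beq_iff_eq, beq_iff_eq]
    exact ⟨Nat.mod_eq_zero_of_dvd h3, h4⟩
  · rw [Bool.or_eq_true]
    left
    rw [bne_iff_ne]
    exact fun h => hd (Nat.dvd_of_mod_eq_zero h)

theorem dv {e : ℕ} (he : e ≠ 0) {ds : List ℕ} (h : ∀ d ∈ e.divisors, d ∈ ds) :
    ∀ d, d ∣ e → d ∈ ds := fun d hd => h d (Nat.mem_divisors.mpr ⟨hd, he⟩)

end OK

theorem pOK (hCONG : CONG.{u}) : OK.{u} := by
  intro G _ _ hG H
  unfold ok
  rw [OK.cg_of hCONG hG H 23 22 (by norm_num) (by simp) (by norm_num) _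
      (OK.dv (by norm_num) (by decide)),
    OK.cg_of hCONG hG H 29 28 (by norm_num) (by simp) (by norm_num) _
      (OK.dv (by norm_num) (by decide)),
    OK.cg_of hCONG hG H 31 10 (by norm_num) (by simp) (by norm_num) _
      (OK.dv (by norm_num) (by decide)),
    OK.cg_of hCONG hG H 37 12 (by norm_num) (by simp) (by norm_num) _
      (OK.dv (by norm_num) (by decide)),
    OK.cg_of hCONG hG H 43 14 (by norm_num) (by simp) (by norm_num) _
      (OK.dv (by norm_num) (by decide))]
  rfl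

end Cfsg.Agent.H97.JM
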