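import Cfsg.Agent.H41.S6Kit2
import Cfsg.Agent.H41.DihPA
import Cfsg.Agent.H93.GT

/-!
An involution with centralizer `2 × Sp₆(2)`: the two transfer lemmas.
-/

set_option autoImplicit false

namespace Cfsg.Agent.H7.S6G

open Cfsg Subgroup
open Cfsg.Agent.H44 Cfsg.Agent.H55.Sp6 Cfsg.Agent.H2.L3E Cfsg.Agent.H41.S6
open scoped Pointwise

universe u

variable {G : Type u} [Group G] [Finite G] {ι : Sp →* G} {t : G}

theorem sylT (h : Hy ι t) : Nat.card ↥(T0.map ι ⊔ zpowers t) = 1024 ∧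
    H8.IsSylowIn 2 (T0.map ι ⊔ zpowers t) (centralizer {t}) := by
  have hle : T0.map ι ⊔ zpowers t ≤ centralizer {t} :=
    sup_le (by rintro _ ⟨a, -, rfl⟩; exact mem_centralizer_singleton_iff.2 (h.ct a).symm)
      (zpowers_le.2 (mem_centralizer_singleton_iff.2 rfl))
  have h2 : (T0.map ι).relIndex (T0.map ι ⊔ zpowers t) = 2 :=
    H41.Dih.two_of t (mem_sup_right (mem_zpowers t)) (fun ⟨a, _, e⟩ => h.tn a e) fun b hb hn => by
      obtain ⟨a, ha, rfl | rfl⟩ := (h.mem_sup T0).1 hb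
      · exact absurd (mem_map_of_mem ι ha) hn
      · rw [h.ct, mul_assoc, h.tt, mul_one]
        exact mem_map_of_mem ι ha
  have h3 := H8.card_eq_card_mul_relIndex (le_sup_left : T0.map ι ≤ T0.map ι ⊔ zpowers t)
  obtain ⟨k, hk⟩ := isPGroup_T0.exists_card_eq
  rw [h2, h.card_map, hk, ← pow_succ] at h3
  have h4 : 2 ^ (k + 1) ∣ 1024 := by
    have := card_dvd_of_le hle
    rw [h3, h.card_cen, show 2 * 1451520 = 1024 * 2835 from rfl] at this
    exact (Nat.Coprime.pow_left _ (by norm_num)).dvd_of_dvd_mul_right this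
  have h5 := card_T0_ge
  have h6 := Nat.le_of_dvd (by norm_num) h4
  rw [pow_succ] at h6
  have h7 : Nat.card ↥(T0.map ι ⊔ zpowers t) = 1024 := by rw [h3, pow_succ]; omega
  refine ⟨h7, hle, IsPGroup.of_card h3, ?_⟩
  have h8 := H8.card_eq_card_mul_relIndex hle
  rw [h7, h.card_cen] at h8
  omega

theorem gtx (h : Hy ι t) : Gtx ι t := by
  intro H K hK ht htK hU hF
  obtain ⟨c1, s1⟩ := sylT h
  have hTH : T0.map ι ⊔ zpowers t ≤ H :=
    sup_le (by rintro _ ⟨a, ha, rfl⟩; exact hU a ha) (zpowers_le.2 ht)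
  have hN : ∀ g ∈ H, ∀ y ∈ H, g * y * g⁻¹ ∈ K → y ∈ K := fun g hg y hy hm => by
    have := (normal_of_index_eq_two (H := K.subgroupOf H) hK).conj_mem
      (⟨_, mul_mem (mul_mem hg hy) (inv_mem hg)⟩ : H) hm (⟨g, hg⟩ : H)⁻¹
    rw [mem_subgroupOf] at this
    simpa [mul_assoc] using this
  obtain ⟨M, hM, hm⟩ := H93.GT.gt_two hK h.tt fun hd => by
    set X := {x : G | IsConj t x ∧ x ∈ H ∧ x ∉ K}
    set Y := {y : G | ∃ h ∈ H, y = h * t * h⁻¹}
    have hYX : Y ⊆ X := by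
      rintro _ ⟨g, hg, rfl⟩
      exact ⟨isConj_iff.2 ⟨g, rfl⟩, mul_mem (mul_mem hg ht) (inv_mem hg),
        fun k => htK (hN g hg t ht k)⟩
    obtain ⟨a, m, hm, ha⟩ := Nat.exists_eq_pow_mul_and_not_dvd (Nat.card_pos (α := H)).ne' 2
      (by norm_num)
    have hm' : Nat.Coprime 2 m := (Nat.Prime.coprime_iff_not_dvd Nat.prime_two).2 hm
    obtain ⟨b, rfl⟩ : ∃ b, a = b + 9 := by
      have := card_dvd_of_le hTH
      rw [c1, ha, show 1024 = 2 ^ 10 from rfl] at this
      have := (Nat.pow_dvd_pow_iff_le_right (by norm_num)).1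
        ((hm'.pow_left _).dvd_of_dvd_mul_right this)
      exact ⟨a - 9, by omega⟩
    have h1 : 2 ^ b ∣ (X \ Y).ncard := by
      refine H93.GT.dvd_ncard H _ _ ?_ ?_
      · rintro g hg y ⟨⟨h1, h2, h3⟩, h4⟩
        refine ⟨⟨h1.trans (isConj_iff.2 ⟨g, rfl⟩), mul_mem (mul_mem hg h2) (inv_mem hg),
          fun k => h3 (hN g hg y h2 k)⟩, fun ⟨k, hk, e⟩ => h4 ⟨g⁻¹ * k, mul_mem (inv_mem hg) hk, ?_⟩⟩
        calc y = g⁻¹ * (g * y * g⁻¹) * g := by group
          _ = _ := by rw [e]; group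
      · rintro y ⟨⟨h1, h2, -⟩, h4⟩
        obtain ⟨x, rfl⟩ := isConj_iff.1 h1
        obtain ⟨j, c, hc, hj⟩ := Nat.exists_eq_pow_mul_and_not_dvd
          (Nat.card_pos (α := ↥(H ⊓ centralizer {x * t * x⁻¹}))).ne' 2 (by norm_num)
        have hj9 : j ≤ 9 := by
          by_contra hlt
          obtain ⟨S, hS⟩ := Sylow.exists_subgroup_card_pow_prime
            (G := ↥(H ⊓ centralizer {x * t * x⁻¹})) 2 (n := 10)
            (hj ▸ (pow_dvd_pow 2 (by omega)).mul_right c)
          set S' := MulAut.conj x⁻¹ • S.map (H ⊓ centralizer {x * t * x⁻¹}).subtype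
          have c2 : Nat.card S' = 2 ^ 10 := by rw [H8.card_conj_smul, card_subtype, hS]
          have hS' : ∀ s ∈ S', x * s * x⁻¹ ∈ H ⊓ centralizer {x * t * x⁻¹} := fun s hs => by
            have := map_subtype_le S (H8.mem_conj_smul.1 hs)
            rwa [inv_inv] at this
          obtain ⟨g, hg, hle⟩ := s1.exists_conj_le (IsPGroup.of_card c2) fun s hs => by
            have := mem_centralizer_singleton_iff.1 (hS' s hs).2
            rw [conj_mul, conj_mul, mul_left_inj, mul_right_inj] at this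
            exact mem_centralizer_singleton_iff.2 this
          have he := eq_of_le_of_card_ge hle (by rw [H8.card_conj_smul, c1, c2]; rfl)
          have hgt : x * g⁻¹ * t * (x * g⁻¹)⁻¹ = x * t * x⁻¹ := by
            calc _ = x * (g⁻¹ * (t * g)) * x⁻¹ := by group
              _ = _ := by rw [← mem_centralizer_singleton_iff.1 hg, inv_mul_cancel_left]
          obtain ⟨k, hk, e⟩ := hF (x * g⁻¹) (hgt ▸ h2) fun u hu => by
            have h5 : ι u ∈ MulAut.conj g • S' := he ▸ mem_sup_left (mem_map_of_mem ι hu)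
            have := (hS' _ (H8.mem_conj_smul.1 h5)).1
            simpa [mul_assoc] using this
          exact h4 ⟨k, hk, by rw [e, hgt]⟩
        have h5 := card_dvd_of_le (inf_le_left : H ⊓ centralizer {x * t * x⁻¹} ≤ H)
        rw [hj, ha] at *
        have h6 : c ∣ m := (((Nat.Prime.coprime_iff_not_dvd Nat.prime_two).2 hc).pow_left
          _).symm.dvd_of_dvd_mul_left ((dvd_mul_left c _).trans h5)
        rw [← mul_assoc, ← pow_add]
        exact Nat.mul_dvd_mul (pow_dvd_pow 2 (by omega)) h6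
    have h2 := H93.GT.ncard_cls H t
    have h3 := H8.card_eq_card_mul_relIndex (inf_le_right : H ⊓ centralizer {t} ≤ centralizer {t})
    have h4 : ¬ 2 ∣ (H ⊓ centralizer {t}).relIndex (centralizer {t}) := fun k =>
      s1.not_dvd (k.trans (relIndex_dvd_of_le_left _ (le_inf hTH s1.le)))
    have h5 : 2 ^ (b + 10) ∣ (X \ Y).ncard * Nat.card (centralizer ({t} : Set G)) := by
      rw [pow_add, h.card_cen]
      exact Nat.mul_dvd_mul h1 (by norm_num)
    have h6 : 2 ^ (b + 10) ∣ 2 * Nat.card H := by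
      rw [ha, ← mul_assoc, ← pow_succ']
      exact dvd_mul_right _ _
    have h7 := h6.trans hd
    rw [← Set.ncard_sdiff_add_ncard_of_subset hYX, add_mul, Nat.dvd_add_right h5, h3,
      ← mul_assoc, h2, ha, pow_succ, mul_assoc, Nat.mul_dvd_mul_iff_left (by positivity)] at h7
    exact ((Nat.Prime.dvd_mul Nat.prime_two).1 h7).elim hm h4
  exact hm (h.no2 M hM)

theorem genT (h : Hy ι t) : GenT ι t := by
  intro K ht hU hc hy
  have hn : T0.map ι ≤ normalizer (K : Set G) := by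
    rintro _ ⟨u, hu, rfl⟩
    exact mem_normalizer_fintype (hU u hu)
  have hm : ∀ x ∈ K ⊔ T0.map ι, ∃ k ∈ K, ∃ u ∈ T0, x = k * ι u := fun x hx => by
    rw [← SetLike.mem_coe, coe_mul_of_right_le_normalizer_left _ _ hn] at hx
    obtain ⟨k, hk, _, ⟨u, hu, rfl⟩, rfl⟩ := hx
    exact ⟨k, hk, u, hu, rfl⟩
  have htK : t ∉ K ⊔ T0.map ι := fun k => by
    obtain ⟨k, hk, u, hu, e⟩ := hm t k
    have e' : k = t * ι u⁻¹ := by rw [e, map_inv, mul_inv_cancel_right]
    obtain ⟨l, hl⟩ := hc k hk (by rw [e', mul_assoc, ← h.ct])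
    exact h.ne_t l _ (hl ▸ e')
  have htn : zpowers t ≤ normalizer ((K ⊔ T0.map ι : Subgroup G) : Set G) := by
    rw [zpowers_le]
    refine mem_normalizer_fintype fun x hx => ?_
    obtain ⟨k, hk, u, hu, rfl⟩ := hm x hx
    have : t * (k * ι u) * t⁻¹ = t * k * t⁻¹ * ι u := by
      rw [h.tinv, mul_assoc, mul_assoc, ← h.ct]; group
    rw [this]
    exact mul_mem (mem_sup_left (ht k hk)) (mem_sup_right (mem_map_of_mem ι hu))
  refine gtx h (K ⊔ T0.map ι ⊔ zpowers t) (K ⊔ T0.map ι) ?_ (mem_sup_right (mem_zpowers t)) htK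
    (fun u hu => mem_sup_left (mem_sup_right (mem_map_of_mem ι hu))) fun x hx _ => ?_
  · refine H41.Dih.two_of t (mem_sup_right (mem_zpowers t)) htK fun b hb hn => ?_
    rw [← SetLike.mem_coe, coe_mul_of_right_le_normalizer_left _ _ htn] at hb
    obtain ⟨k, hk, _, ⟨i, rfl⟩, rfl⟩ := hb
    have h2 : t ^ (2 : ℤ) = 1 := by rw [zpow_two, h.tt]
    rcases Int.even_or_odd' i with ⟨j, rfl | rfl⟩
    · exact absurd (by simpa [zpow_mul, h2] using hk) hn
    · simpa [zpow_add, zpow_mul, h2, mul_assoc, h.tt] using hk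
  · obtain ⟨k, hk, e⟩ := hy _ hx (isConj_iff.2 ⟨x, rfl⟩)
    exact ⟨k, mem_sup_left (mem_sup_left hk), e.symm⟩

theorem gt : GTStmt.{u} := fun _ _ _ _ _ h => ⟨genT h, gtx h⟩

end Cfsg.Agent.H7.S6G
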