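import Cfsg.Agent.H63.AnDefs2
import Cfsg.Agent.H67.Conj

/-!
# Project AN, piece KIT: elementary consequences of the basic configuration
-/

set_option autoImplicit false

namespace Cfsg.Agent.H7.AnKit

open Cfsg Cfsg.Agent.H63 Cfsg.Agent.H63.SL Cfsg.Agent.H63.AN Subgroup
open Cfsg.Agent.H7.AA
open Equiv (swap Perm)
open Equiv.Perm (sign)
open scoped commutatorElement

universe u

theorem one_of_odd {H : Type u} [Group H] {g : H} {k : ℕ} (hg : g ^ 2 ^ k = 1)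
    (ho : Odd (orderOf g)) : g = 1 :=
  orderOf_eq_one_iff.1 (Nat.eq_one_of_dvd_coprimes
    ((Nat.coprime_two_right.2 ho).pow_right k) dvd_rfl (orderOf_dvd_of_pow_eq_one hg))

theorem exists_proj {H : Type u} [Group H] [Finite H] {t : H} (t2 : t * t = 1) (t1 : t ≠ 1)
    (hc : ∀ g, g * t = t * g) (h : ∀ k, Is2 k → k = 1 ∨ k = t) :
    ∃ f : H →* H, (∀ k, f k = 1 ∨ f k = t) ∧ f t = t ∧ ∀ k, f k = 1 ↔ Odd (orderOf k) := by
  have : Fact (Nat.Prime 2) := ⟨Nat.prime_two⟩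
  obtain ⟨a, m, hm, e⟩ := Nat.exists_eq_two_pow_mul_odd (Nat.card_pos (α := H)).ne'
  obtain ⟨P⟩ := (inferInstance : Nonempty (Sylow 2 H))
  have hP : (P : Subgroup H) ≤ center H := fun x hx => by
    obtain ⟨k, hk⟩ := P.2 ⟨x, hx⟩
    rcases h x ⟨k, congrArg Subtype.val hk⟩ with rfl | rfl
    exacts [one_mem _, mem_center_iff.2 hc]
  have hn : Odd (center H).index := Nat.not_even_iff_odd.1 fun k =>
    P.not_dvd_index ((even_iff_two_dvd.1 k).trans (index_dvd_of_le hP))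
  let f : H →* H := MonoidHom.mk' (fun k => k ^ ((center H).index * m)) fun x y => by
    have e := congrArg Subtype.val ((MonoidHom.transferCenterPow H).map_mul x y)
    simp only [coe_mul, MonoidHom.transferCenterPow_apply] at e
    rw [pow_mul, pow_mul, pow_mul, e]
    exact Commute.mul_pow (mem_center_iff.1 ((center H).pow_index_mem y) _) m
  have hf : ∀ k, f k = k ^ ((center H).index * m) := fun k => rfl
  have h1 : ∀ k, f k = 1 ∨ f k = t := fun k => h _ ⟨a, by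
    rw [hf, ← pow_mul, mul_assoc, mul_comm m, ← e, mul_comm, pow_mul, pow_card_eq_one', one_pow]⟩
  refine ⟨f, h1, ?_, fun k => ⟨fun e => ?_, fun e => (h1 k).resolve_right fun e' => t1 ?_⟩⟩
  · obtain ⟨j, hj⟩ := hn.mul hm
    rw [hf, hj, pow_succ, pow_mul, pow_two, t2, one_pow, one_mul]
  · rw [hf] at e
    exact (hn.mul hm).of_dvd_nat (orderOf_dvd_of_pow_eq_one e)
  · exact one_of_odd (k := 1) (by rw [pow_one, pow_two, t2])
      (e' ▸ e.of_dvd_nat (orderOf_map_dvd f k))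

variable {G : Type u} [Group G] [Finite G] {α : Type} [Fintype α] [DecidableEq α]
  {ψ : alternatingGroup α →* G} {t : G}

omit [Finite G] in
theorem bs_cj (h : Bs ψ t) (g : G) : Bs (cj g ψ) (g * t * g⁻¹) where
  nine := h.nine
  inj := (MulAut.conj g).injective.comp h.inj
  t2 := by rw [show g * t * g⁻¹ * (g * t * g⁻¹) = g * (t * t) * g⁻¹ by group, h.t2]; group
  t1 := fun e => h.t1 (by simpa using e)
  tK := mem_KA_cj.2 (by simpa [mul_assoc] using h.tK)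
  cN := fun x hx => mem_NA_cj.2 (h.cN _ (by
    have := hx.map (MulAut.conj g⁻¹)
    simpa [mul_assoc] using this))
  r2 := fun k hk hx ⟨n, hn⟩ => by
    rcases h.r2 _ (mem_KA_cj.1 hk) (by
      have := hx.map (MulAut.conj g⁻¹)
      simpa [mul_assoc] using this) ⟨n, by
        have := congrArg (MulAut.conj g⁻¹) hn
        rw [map_pow, map_one] at this
        simpa using this⟩ with e | e
    · exact Or.inl (by rw [show k = g * (g⁻¹ * k * g) * g⁻¹ by group, e]; group)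
    · exact Or.inr (by rw [← e]; group)

section

variable (h : Bs ψ t)
include h

omit [Finite G] in
theorem five : 5 ≤ Fintype.card α := by have := h.nine; omega

theorem act (g : G) (hg : Commute g t) : ∃ ρ, Acts ψ g ρ :=
  exists_acts (five h) (by have := h.nine; omega) h.inj (h.cN g hg)

omit [Finite G] in
theorem tn {x : G} (hx : x ∈ ψ.range) : x ≠ t := fun e =>
  h.t1 (range_KA (five h) h.inj (e ▸ hx) h.tK)

omit [Finite G] in
theorem evt (σ : Perm α) : Commute (ev ψ σ) t := (KA_ev h.tK σ).symm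

omit [Finite G] in
theorem pow_KA {k l : G} (hk : k ∈ KA ψ) (hl : l ∈ ψ.range) {n : ℕ} (e : (k * l) ^ n = 1) :
    k ^ n = 1 := by
  rw [Commute.mul_pow (KA_comm hk hl)] at e
  exact range_KA (five h) h.inj (eq_inv_of_mul_eq_one_left e ▸ inv_mem (pow_mem hl n))
    (pow_mem hk n)

theorem odd : ∃ O : Subgroup G, Odd (Nat.card O) ∧ O ≤ C1[t] ∧ O ≤ KA ψ ∧ C1[t] ≤ N[O] ∧
    ∀ k ∈ KA ψ, Commute k t → k ∈ O ∨ k * t ∈ O := by
  have : Fact (Nat.Prime 2) := ⟨Nat.prime_two⟩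
  let t' : ↥(KA ψ ⊓ C1[t]) := ⟨t, h.tK, mem_centralizer_singleton_iff.2 rfl⟩
  obtain ⟨f, f1, f2, f3⟩ := exists_proj (t := t') (Subtype.ext h.t2)
    (fun e => h.t1 (congrArg Subtype.val e))
    (fun g => Subtype.ext (mem_centralizer_singleton_iff.1 g.2.2))
    (fun k ⟨n, hn⟩ => (h.r2 k k.2.1 (mem_centralizer_singleton_iff.1 k.2.2)
      ⟨n, congrArg Subtype.val hn⟩).imp Subtype.ext Subtype.ext)
  have hm : ∀ x, x ∈ f.ker.map (KA ψ ⊓ C1[t]).subtype ↔ x ∈ KA ψ ⊓ C1[t] ∧ Odd (orderOf x) :=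
    fun x => ⟨by rintro ⟨y, hy, rfl⟩; exact ⟨y.2, by simpa using (f3 y).1 hy⟩,
      fun ⟨a, b⟩ => ⟨⟨x, a⟩, (f3 _).2 (by rwa [← orderOf_coe]), rfl⟩⟩
  refine ⟨f.ker.map (KA ψ ⊓ C1[t]).subtype, Nat.not_even_iff_odd.1 fun k => ?_,
    fun x hx => ((hm x).1 hx).1.2, fun x hx => ((hm x).1 hx).1.1,
    fun c hc => mem_normalizer_fintype fun x hx => ?_, fun k hk kt => ?_⟩
  · obtain ⟨x, hx⟩ := exists_prime_orderOf_dvd_card' 2 (even_iff_two_dvd.1 k)
    have := ((hm x).1 x.2).2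
    rw [orderOf_coe, hx] at this
    exact absurd this (by decide)
  · obtain ⟨⟨a, b⟩, c'⟩ := (hm x).1 hx
    refine (hm _).2 ⟨⟨NA_conj_KA (h.cN c (mem_centralizer_singleton_iff.1 hc)) a,
      C1[t].mul_mem (C1[t].mul_mem hc b) (C1[t].inv_mem hc)⟩, ?_⟩
    rwa [← MulAut.conj_apply, MulEquiv.orderOf_eq]
  · let k' : ↥(KA ψ ⊓ C1[t]) := ⟨k, hk, mem_centralizer_singleton_iff.2 kt⟩
    rcases f1 k' with e | e
    · exact Or.inl ⟨k', e, rfl⟩
    · exact Or.inr ⟨k' * t', by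
        rw [SetLike.mem_coe, MonoidHom.mem_ker, map_mul, e, f2]; exact Subtype.ext h.t2, rfl⟩

theorem der (g : G) (hg : g ∈ ⁅C1[t], C1[t]⁆) (h2 : Is2 g) : g ∈ ψ.range := by
  obtain ⟨O, o1, o2, o3, o4, o5⟩ := odd h
  have hL : ψ.range ≤ C1[t] := fun x hx =>
    mem_centralizer_singleton_iff.2 (KA_comm h.tK hx).symm
  have hm : ∀ {x}, x ∈ O ⊔ ψ.range ↔ ∃ a ∈ O, ∃ b ∈ ψ.range, a * b = x :=
    H67.mem_sup_of_le_normalizer' (hL.trans o4)
  have hn : ∀ c ∈ C1[t], ∀ x ∈ O ⊔ ψ.range, c * x * c⁻¹ ∈ O ⊔ ψ.range := fun c hc x hx => by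
    obtain ⟨a, ha, b, hb, rfl⟩ := hm.1 hx
    exact hm.2 ⟨_, (mem_normalizer_iff.1 (o4 hc) a).1 ha, _,
      NA_conj (h.cN c (mem_centralizer_singleton_iff.1 hc)) hb, by group⟩
  have key : ∀ a ∈ C1[t], ∀ b ∈ C1[t], ∀ ρ, Acts ψ a ρ → sign ρ = 1 → ⁅a, b⁆ ∈ O ⊔ ψ.range :=
    fun a ha b hb ρ hρ s => by
      have bt := mem_centralizer_singleton_iff.1 hb
      have k : ∀ x ∈ O ⊔ ψ.range, ⁅x, b⁆ ∈ O ⊔ ψ.range := fun x hx => by
        have := mul_mem hx (hn b hb _ (inv_mem hx))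
        rwa [← mul_assoc, ← mul_assoc] at this
      rcases o5 _ (hρ.mul_inv_KA s) (Commute.mul_left (mem_centralizer_singleton_iff.1 ha)
        (evt h ρ).inv_left) with e | e
      · exact k a (hm.2 ⟨_, e, _, ev_mem ρ, by group⟩)
      · have e1 : a * t ∈ O ⊔ ψ.range := hm.2 ⟨_, e, _, ev_mem ρ, by
          rw [mul_assoc, ← (evt h ρ).eq]; group⟩
        have e2 := k _ e1
        rwa [show ⁅a * t, b⁆ = a * (t * b) * t⁻¹ * a⁻¹ * b⁻¹ by
          rw [commutatorElement_def]; group, ← bt, ← mul_assoc, mul_inv_cancel_right] at e2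
  have hle : ⁅C1[t], C1[t]⁆ ≤ O ⊔ ψ.range := commutator_le.2 fun a ha b hb => by
    obtain ⟨ρ, hρ⟩ := act h a (mem_centralizer_singleton_iff.1 ha)
    obtain ⟨τ, hτ⟩ := act h b (mem_centralizer_singleton_iff.1 hb)
    rcases Int.units_eq_one_or (sign ρ) with s | s
    · exact key a ha b hb ρ hρ s
    rcases Int.units_eq_one_or (sign τ) with s' | s'
    · rw [← commutatorElement_inv]
      exact inv_mem (key b hb a ha τ hτ s')
    · have := key _ (mul_mem ha (inv_mem hb)) b hb _ (hρ.mul hτ.inv) (by simp [s, s'])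
      rwa [show ⁅a * b⁻¹, b⁆ = ⁅a, b⁆ by simp only [commutatorElement_def]; group] at this
  obtain ⟨a, ha, b, hb, rfl⟩ := hm.1 (hle hg)
  obtain ⟨n, hn⟩ := h2
  rw [one_of_odd (pow_KA h (o3 ha) hb hn)
    (o1.of_dvd_nat (by simpa using orderOf_dvd_natCard (⟨a, ha⟩ : O))), one_mul]
  exact hb

end

/-- **KIT** -/
theorem kit (kp : KpStmt) : AN.KitStmt.{u} := by
  intro G _ _ α _ _ ψ t h
  obtain ⟨k1, k2⟩ := kp α h.nine
  refine ⟨⟨act h, ?_, fun σ => tn h (ev_mem σ), fun g ρ gt ⟨n, hn⟩ hρ s => ?_, der h,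
    fun σ hσ => ?_, odd h, fun d ρ _ hρ a s => ?_, k1⟩, bs_cj h⟩
  · choose π hπ using fun g : C1[t] => act h g (mem_centralizer_singleton_iff.1 g.2)
    exact ⟨MonoidHom.mk' π fun x y => (hπ (x * y)).uniq (five h) h.inj ((hπ x).mul (hπ y)), hπ⟩
  · have k := hρ.mul_inv_KA s
    rcases h.r2 _ k (gt.mul_left (evt h ρ).inv_left)
      ⟨n, pow_KA h k (ev_mem ρ) (by rwa [inv_mul_cancel_right])⟩ with e | e
    · exact Or.inl (mul_inv_eq_one.1 e)
    · exact Or.inr (mul_inv_eq_iff_eq_mul.1 e)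
  · obtain ⟨g, e⟩ := isConj_iff.1 hσ
    have h' := bs_cj h g
    have s : sign σ = 1 := by
      by_contra c
      exact h'.t1 (by rw [e, ev, dif_neg c])
    have s2 : σ * σ = 1 := ev_eq_one h.inj (by simp) (by rw [ev_mul s s, ← e, h'.t2])
    have hle : ⁅CA σ, CA σ⁆ ≤ (⁅C1[ev ψ σ], C1[ev ψ σ]⁆.comap ψ).map
        (alternatingGroup α).subtype := commutator_le.2 fun a ha b hb => by
      obtain ⟨a1, a2⟩ := mem_CA.1 ha
      obtain ⟨b1, b2⟩ := mem_CA.1 hb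
      refine ⟨⁅(⟨a, a2⟩ : alternatingGroup α), (⟨b, b2⟩ : alternatingGroup α)⁆, ?_, rfl⟩
      rw [SetLike.mem_coe, mem_comap, map_commutatorElement, ← ev_of a2, ← ev_of b2]
      exact commutator_mem_commutator (mem_centralizer_singleton_iff.2 (ev_comm a2 s a1))
        (mem_centralizer_singleton_iff.2 (ev_comm b2 s b1))
    obtain ⟨y, hy, e'⟩ := hle (k2 σ s2 s σ ⟨s, fun x => Or.inr rfl⟩)
    have hy' : ev ψ σ ∈ ⁅C1[ev ψ σ], C1[ev ψ σ]⁆ := by
      have : ψ y = ev ψ σ := by rw [← ev_coe, ← e']; rfl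
      nth_rewrite 3 [← this]
      exact hy
    rw [← e] at hy'
    exact tn h' (der h' _ hy' ⟨1, by rw [pow_one, pow_two, h'.t2]⟩) rfl
  · have := hρ a⁻¹ (by simp [s])
    rw [show a * ρ * a⁻¹ * ρ⁻¹ = a * (ρ * a⁻¹ * ρ⁻¹) by group, ev_mul s (by simp [s]), ← this,
      ev_inv s]
    group

end Cfsg.Agent.H7.AnKit
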