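import Cfsg.Agent.H35.RfQ
import Cfsg.Agent.H83.Syl

/-! Project RF, piece X2: uniqueness of the subgroup of order three. -/

set_option autoImplicit false

namespace Cfsg.Agent.H7.RfX2

open Cfsg Subgroup Cfsg.Agent.H18.Rf Cfsg.Agent.H35.RF

universe u

section
variable {X : Type u} [Group X]

/-- an involution normalising an elementary group of order 16 centralises a four-group -/
theorem four_of [Finite X] {E : Subgroup X} (hc : Nat.card E = 16) (hs : ∀ e ∈ E, e * e = 1) {a : X}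
    (ha : a ∈ NN E) (haa : a * a = 1) :
    ∃ b ∈ E, ∃ b' ∈ E, b ≠ 1 ∧ b' ≠ 1 ∧ b * b' ≠ 1 ∧ a * b = b * a ∧ a * b' = b' * a := by
  have hi : ∀ e ∈ E, e⁻¹ = e := fun e he => inv_eq_of_mul_eq_one_right (hs e he)
  have hcm : ∀ x ∈ E, ∀ y ∈ E, x * y = y * x := fun x hx y hy => by
    rw [← hi _ (E.mul_mem hx hy), mul_inv_rev, hi x hx, hi y hy]
  have hn : ∀ x ∈ E, a * x * a⁻¹ ∈ E := fun x hx => (mem_normalizer_iff.mp ha x).mp hx
  have ha' : a⁻¹ = a := inv_eq_of_mul_eq_one_right haa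
  let f : E →* E := MonoidHom.mk' (fun x => ⟨x * (a * x * a⁻¹), E.mul_mem x.2 (hn x x.2)⟩) (by
    intro x y
    apply Subtype.ext
    show (x : X) * y * (a * (x * y) * a⁻¹) = x * (a * x * a⁻¹) * (y * (a * y * a⁻¹))
    have := hcm _ y.2 _ (hn x x.2)
    calc (x : X) * y * (a * (x * y) * a⁻¹) = x * (y * (a * x * a⁻¹)) * (a * y * a⁻¹) := by group
      _ = x * ((a * x * a⁻¹) * y) * (a * y * a⁻¹) := by rw [this]
      _ = _ := by group)
  have hk : ∀ x : E, x ∈ f.ker ↔ a * x = x * a := by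
    intro x
    rw [MonoidHom.mem_ker, Subtype.ext_iff]
    show (x : X) * (a * x * a⁻¹) = 1 ↔ _
    rw [mul_eq_one_iff_inv_eq, hi x x.2, eq_mul_inv_iff_mul_eq, eq_comm]
  have hr : f.range ≤ f.ker := by
    rintro _ ⟨x, rfl⟩
    rw [hk]
    show a * (x * (a * x * a⁻¹)) = x * (a * x * a⁻¹) * a
    rw [hcm _ x.2 _ (hn x x.2), ha']
    calc a * (a * x * a * x) = (a * a) * x * a * x := by group
      _ = x * a * x := by rw [haa, one_mul]
      _ = (x * (a * x * a⁻¹)) * a := by group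
      _ = a * x * a⁻¹ * x * a := by rw [hcm _ x.2 _ (hn x x.2)]
      _ = _ := by rw [ha']
  have h1 : Nat.card f.ker * Nat.card f.range = 16 := by
    rw [← Subgroup.index_ker, Subgroup.card_mul_index, hc]
  have h2 : Nat.card f.range ≤ Nat.card f.ker := Subgroup.card_le_of_le hr
  have h3 : 2 < Nat.card f.ker := by nlinarith
  have := Fintype.ofFinite f.ker
  rw [Nat.card_eq_fintype_card, Fintype.two_lt_card_iff] at h3
  obtain ⟨x, y, z, hxy, hxz, hyz⟩ := h3
  refine ⟨((x⁻¹ * y : f.ker) : E), ((x⁻¹ * y : f.ker) : E).2, ((x⁻¹ * z : f.ker) : E),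
    ((x⁻¹ * z : f.ker) : E).2, ?_, ?_, ?_, (hk _).mp (x⁻¹ * y).2, (hk _).mp (x⁻¹ * z).2⟩
  · intro h
    exact hxy (inv_mul_eq_one.mp (Subtype.ext (Subtype.ext h)))
  · intro h
    exact hxz (inv_mul_eq_one.mp (Subtype.ext (Subtype.ext h)))
  · intro h
    rw [mul_eq_one_iff_inv_eq, hi _ ((x⁻¹ * y : f.ker) : E).2] at h
    exact hyz (mul_left_cancel (Subtype.ext (Subtype.ext h) : x⁻¹ * y = x⁻¹ * z))

theorem conj_three {r b : X} (hr : orderOf r = 3) (hb : b ∈ NN (zpowers r)) :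
    b * r * b⁻¹ = r ∨ b * r * b⁻¹ = r⁻¹ := by
  classical
  have h := (mem_normalizer_iff.mp hb r).mp (mem_zpowers r)
  have h3 : r ^ 3 = 1 := by rw [← hr, pow_orderOf_eq_one]
  have hfin : IsOfFinOrder r := orderOf_pos_iff.mp (by omega)
  rw [← hfin.mem_powers_iff_mem_zpowers, hfin.mem_powers_iff_mem_range_orderOf, hr,
    Finset.mem_image] at h
  obtain ⟨k, hk, h⟩ := h
  rw [Finset.mem_range] at hk
  interval_cases k
  · exfalso
    rw [pow_zero, eq_comm, conj_eq_one_iff] at h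
    rw [h, orderOf_one] at hr
    omega
  · left
    rw [← h, pow_one]
  · right
    rw [← h, eq_inv_iff_mul_eq_one, ← pow_succ, h3]

theorem norm_conj {r g y : X} (h : g⁻¹ * y * g ∈ NN (zpowers r)) :
    y ∈ NN (zpowers (g * r * g⁻¹)) := by
  have key : ∀ x, x ∈ zpowers (g * r * g⁻¹) ↔ g⁻¹ * x * g ∈ zpowers r := by
    intro x
    simp only [mem_zpowers_iff, conj_zpow]
    constructor
    · rintro ⟨k, rfl⟩
      exact ⟨k, by group⟩
    · rintro ⟨k, hk⟩
      exact ⟨k, by rw [hk]; group⟩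
  rw [mem_normalizer_iff]
  intro x
  rw [key, key, mem_normalizer_iff.mp h]
  rw [show g⁻¹ * y * g * (g⁻¹ * x * g) * (g⁻¹ * y * g)⁻¹ = g⁻¹ * (y * x * y⁻¹) * g by group]

end

theorem x2 (hX1 : X1Stmt.{u}) : X2Stmt.{u} := by
  intro X A _ _ _ _ φ s W H E T ρ xf e he he1 hTe g hg
  have hC := hX1 X A φ s W H E T ρ xf e he he1 hTe
  have : Fact (Nat.Prime 2) := ⟨Nat.prime_two⟩
  have hee := xf.sqE e he
  -- reduction to `g e g⁻¹ ∈ T`
  have main : ∀ g : X, g * e * g⁻¹ ∈ T → g ∈ NN (zpowers ρ) := by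
    intro g hgT
    have haa : g * e * g⁻¹ * (g * e * g⁻¹) = 1 := by
      rw [show g * e * g⁻¹ * (g * e * g⁻¹) = g * (e * e) * g⁻¹ by group, hee]
      group
    obtain ⟨b, hb, b', hb', hb1, hb1', hbb, hab, hab'⟩ :=
      four_of xf.cE xf.sqE (xf.nE (xf.TH hgT)) haa
    have ho : orderOf (g * ρ * g⁻¹) = 3 := by
      rw [← xf.ρ3]
      exact (MulAut.conj g).orderOf_eq ρ
    have h3 : (g * ρ * g⁻¹) ^ 3 = 1 := by rw [← ho, pow_orderOf_eq_one]
    have fpf : ∀ a, φ (g * ρ * g⁻¹) a = a → a = 1 := by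
      intro a ha
      have h1 : φ ρ (φ g⁻¹ a) = φ g⁻¹ a := by
        conv_rhs => rw [← ha]
        rw [← MulAut.mul_apply, ← MulAut.mul_apply, ← map_mul, ← map_mul]
        congr 2
        group
      exact (φ g⁻¹).injective ((xf.fpf _ h1).trans (map_one _).symm)
    have cen : ∀ c ∈ E, g * e * g⁻¹ * c = c * (g * e * g⁻¹) →
        c * (g * ρ * g⁻¹) = g * ρ * g⁻¹ * c := by
      intro c hc hac
      have hn : c ∈ NN (zpowers (g * ρ * g⁻¹)) := by
        apply norm_conj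
        apply hC
        rw [mem_centralizer_singleton_iff]
        calc g⁻¹ * c * g * e = g⁻¹ * (c * (g * e * g⁻¹)) * g := by group
          _ = g⁻¹ * (g * e * g⁻¹ * c) * g := by rw [hac]
          _ = _ := by group
      rcases conj_three ho hn with h | h
      · exact mul_inv_eq_iff_eq_mul.mp h
      · exfalso
        let K : Subgroup A := (φ c).toMonoidHom.eqLocus (MonoidHom.id A)
        have hK : ∀ a, a ∈ K ↔ φ c a = a := fun a => Iff.rfl
        have hWK : W ≤ K := fun w hw => xf.EW1 c hc w hw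
        obtain ⟨a0, ha0, ha0'⟩ := xf.big c hc
        have hlt : 2 ^ 6 < Nat.card K := by
          by_contra hle
          have := Subgroup.eq_of_le_of_card_ge hWK (by rw [xf.cW]; omega)
          exact ha0 (this ▸ (hK a0).mpr ha0')
        have hinj : Function.Injective
            (fun p : K × K => (p.1 : A) * φ (g * ρ * g⁻¹) p.2) := by
          rintro ⟨x, y⟩ ⟨x', y'⟩ hxy
          have h1 : ((x'⁻¹ * x : K) : A) = φ (g * ρ * g⁻¹) (y' * y⁻¹ : K) := by
            have hxy' : (x : A) * φ (g * ρ * g⁻¹) y = x' * φ (g * ρ * g⁻¹) y' := hxy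
            show (x' : A)⁻¹ * x = φ (g * ρ * g⁻¹) (y' * (y : A)⁻¹)
            rw [map_mul (φ _), map_inv (φ _), inv_mul_eq_iff_eq_mul, ← mul_assoc, ← hxy',
              mul_inv_cancel_right]
          have h2 : φ c (φ (g * ρ * g⁻¹) (y' * y⁻¹ : K)) = φ (g * ρ * g⁻¹) (y' * y⁻¹ : K) := by
            rw [← h1]
            exact (x'⁻¹ * x).2
          have h4 : φ c ((y' * y⁻¹ : K) : A) = (y' * y⁻¹ : K) := (y' * y⁻¹).2
          have h5 : c * (g * ρ * g⁻¹) = (g * ρ * g⁻¹) * ((g * ρ * g⁻¹) * c) := by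
            rw [mul_inv_eq_iff_eq_mul.mp h, ← mul_assoc, inv_eq_of_mul_eq_one_left]
            rw [← h3, pow_succ, sq]
          rw [← MulAut.mul_apply, ← map_mul, h5, map_mul φ (g * ρ * g⁻¹), MulAut.mul_apply,
            map_mul φ (g * ρ * g⁻¹), MulAut.mul_apply, h4] at h2
          have h6 := fpf _ ((φ _).injective h2)
          have h7 : y' = y := mul_inv_eq_one.mp (Subtype.ext h6)
          rw [h6, map_one] at h1
          have h8 : x' = x := inv_mul_eq_one.mp (Subtype.ext h1)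
          rw [h7, h8]
        have := Nat.card_le_card_of_injective _ hinj
        rw [Nat.card_prod, xf.cA] at this
        nlinarith
    have hH : g * ρ * g⁻¹ ∈ H := by
      rw [xf.nW]
      intro w hw
      refine xf.four b hb b' hb' hb1 hb1' hbb _ ?_ ?_
      · rw [← MulAut.mul_apply, ← map_mul, cen b hb hab, map_mul φ (g * ρ * g⁻¹), MulAut.mul_apply,
          xf.EW1 b hb w hw]
      · rw [← MulAut.mul_apply, ← map_mul, cen b' hb' hab', map_mul φ (g * ρ * g⁻¹),
          MulAut.mul_apply, xf.EW1 b' hb' w hw]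
    have hz := xf.h3 _ hH h3 (fun w _ hw => fpf w hw)
    apply mem_normalizer_fintype
    rintro _ ⟨k, rfl⟩
    show g * ρ ^ k * g⁻¹ ∈ zpowers ρ
    rw [← conj_zpow]
    exact zpow_mem hz k
  obtain ⟨P, hP⟩ := xf.syl
  have hT : H83.IsSylowIn 2 T (NN (zpowers ρ)) := by
    rw [← hP]
    exact H83.isSylowIn_of_sylow P (hP ▸ xf.TH.trans xf.nρ)
  obtain ⟨n, hn, hle⟩ := hT.exists_conj_le (zpowers_le.mpr hg)
    (H83.isPGroup_zpowers (k := 1) (by rw [pow_one, conj_pow, sq, hee]; group))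
  have h1 : n * g ∈ NN (zpowers ρ) := by
    apply main
    apply hle
    rw [H83.mem_cj]
    rw [show n⁻¹ * (n * g * e * (n * g)⁻¹) * n = g * e * g⁻¹ by group]
    exact mem_zpowers _
  simpa using mul_mem (inv_mem hn) h1

end Cfsg.Agent.H7.RfX2
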