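import Cfsg.Agent.H77.SgDefs2
import Cfsg.Agent.H11.Kernel

/-! Project SG: the part of a character over a linear character of a central subgroup. -/

set_option autoImplicit false

namespace Cfsg.Agent.H7.SgP

open Cfsg Cfsg.Agent.H11 Cfsg.Agent.H77.Sg

universe w

theorem part : Part0.{w} := by
  intro G _ _ Z π χ hZ hπ h0 hχ hi
  classical
  have := Fintype.ofFinite Z
  obtain ⟨lam, l1, l2⟩ := exists_monoidHom_of_le_center hχ Z hZ
  let P : (G → ℂ) → G → ℂ := fun f g =>
    (Nat.card Z : ℂ)⁻¹ * ∑ z : Z, (((lam z)⁻¹ : ℂˣ) : ℂ) * f (z * g)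
  have hc := card_ne_zero Z
  have key : IsCharacter G (P π) ∧ classInner (P π) χ = classInner π χ := by
    refine isCharacter_induction (P := fun f => IsCharacter G (P f) ∧
      classInner (P f) χ = classInner f χ) ?_ (fun ψ hψ => ?_) (fun φ ψ _ _ a b => ?_) hπ
    · have : P 0 = 0 := by ext g; simp [P]
      rw [this]; exact ⟨isCharacter_zero, rfl⟩
    · obtain ⟨μ, m1, m2⟩ := exists_monoidHom_of_le_center hψ Z hZ
      let f : Z →* ℂ := (Units.coeHom ℂ).comp (lam⁻¹ * μ)
      have e : ∀ g, P ψ g = (Nat.card Z : ℂ)⁻¹ * (∑ z : Z, f z) * ψ g := fun g => by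
        simp only [P, m1, mul_assoc, Finset.sum_mul]
        congr 2; ext z
        simp [f, mul_assoc]
      by_cases h : f = 1
      · have : P ψ = ψ := by
          ext g
          rw [e, h]
          simp [← Nat.card_eq_fintype_card, hc]
        rw [this]; exact ⟨isCharacter_of_irr hψ, rfl⟩
      · have : P ψ = 0 := by
          ext g
          rw [e, sum_hom_units_eq_zero f h]; simp
        rw [this, classInner_zero_left]
        refine ⟨isCharacter_zero, (classInner_irr_of_ne hψ hχ ?_).symm⟩
        rintro rfl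
        refine h (MonoidHom.ext fun z => ?_)
        have := mul_right_cancel₀ (irr_apply_one_ne_zero hχ) ((l2 z).symm.trans (m2 z))
        simp [f, ← this]
    · have : P (φ + ψ) = P φ + P ψ := by
        ext g; simp [P, mul_add, Finset.sum_add_distrib]
      rw [this, classInner_add_left, classInner_add_left, a.2, b.2]
      exact ⟨isCharacter_add a.1 b.1, rfl⟩
  refine ⟨P π, key.1, key.2 ▸ hi, ?_, fun g hg => ?_⟩
  · obtain ⟨n, hn⟩ := exists_nat_degree key.1
    obtain ⟨m, hm⟩ := exists_nat_degree hπ
    have e : P π 1 = (Nat.card Z : ℂ)⁻¹ * π 1 := by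
      simp only [P]
      rw [Finset.sum_eq_single 1 (fun z _ hz => by
        rw [mul_one, h0 z z.2 (fun e => hz (Subtype.ext e)), mul_zero]) (by simp)]
      simp
    rw [hn, hm, eq_inv_mul_iff_mul_eq₀ hc] at e
    simp only [charDegree, hn, hm, Complex.natCast_re, Nat.floor_natCast]
    rw [mul_comm]
    exact_mod_cast e
  · simp only [P]
    rw [Finset.sum_eq_zero fun z _ => by rw [hg z z.2, mul_zero], mul_zero]

end Cfsg.Agent.H7.SgP
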