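import Cfsg.Agent.H6.TBDefs
import Cfsg.Agent.H3.Cores

/-!
Project TB: the strongly closed subgroup of order 64 in the exceptional case.
-/

set_option autoImplicit false

namespace Cfsg.Agent.H7.TbX

open Cfsg Subgroup Cfsg.Agent.H6.TB
open Cfsg.Agent.H83 (cj mem_cj conj_mem_cj)
open scoped Cfsg.Agent.H63 commutatorElement

universe u

theorem xd : XDStmt.{u} := by
  intro G _ _ Ω cx gm gb xa xb B B' B'' e
  have la := cx.la
  have le := cx.le
  have tb := cx.toTB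
  have n1 := e.n1
  have n2 := e.n2
  have a1 := n1.toAd
  have a2 := n2.toAd
  have hB := a1.l
  have hB' := a1.r
  have hB'' := a2.r
  obtain ⟨c4, q4⟩ := cx.c4 B hB
  set T := B ⊔ om B' with hT
  have hT2 : IsPGroup 2 T := IsPGroup.to_sup_of_normal_left' (tb.two B hB)
    ((tb.two B' hB').to_le (om_le _)) (le_sup_right.trans (le.vle a1))
  obtain ⟨S, hS⟩ := hT2.exists_le_sylow
  have hSN : (S : Subgroup G) ≤ N[B] := fun s hs => by
    by_contra hn
    have hc : Cm Ω B (cj s B) := ⟨hB, tb.conj B hB s,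
      fun h => hn (H83.cj_eq_self_iff.1 h.symm), la.two B hB _ (tb.conj B hB s) S S.isPGroup'
        (le_sup_left.trans hS) (H83.cj_le_of_mem (le_sup_left.trans hS) hs)⟩
    exact hc.not_nc (cx.nc _ _ (hc.ad tb))
  have hNT : ∀ g ∈ N[B], ∀ y ∈ T, g * y * g⁻¹ ∈ T := fun g hg y hy => by
    have : cj g T ≤ T := by
      rw [hT, H83.cj_sup, H83.cj_eq_self hg, ← om_cj]
      exact sup_le le_sup_left (xb a1 (a1.cjN tb hg))
    exact this (conj_mem_cj hy)
  have hVT : vv B B' ≤ T := sup_le ((om_le B).trans le_sup_left) le_sup_right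
  have hVT' : vv B B'' ≤ T := sup_le ((om_le B).trans le_sup_left) (xb a1 a2)
  have sq : ∀ P ∈ Ω, ∀ a ∈ om P, a * a = 1 := fun P hP a ha => ((la.mem_om P hP a).1 ha).2
  have hinf : ∀ v ∈ vv B B', v ∈ vv B B'' → v ∈ om B := fun v h1 h2 => by
    by_contra hn
    obtain ⟨x, hx, hv⟩ := cx.lb.part n1 (q4.trans c4.symm) v h1 hn
    obtain ⟨y, hy, hw⟩ := cx.lb.part n2 (q4.trans c4.symm) v h2 hn
    rw [← om_cj] at hv hw
    have h3 := la.eq _ (tb.conj _ hB' x) _ (tb.conj _ hB'' y) v (om_le _ hv) (om_le _ hw)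
      fun h => hn (h ▸ one_mem _)
    have h4 : B'' = cj (y⁻¹ * x) B' := by rw [H83.cj_mul, h3, H83.cj_inv_cj]
    exact e.na (cx.lb.lin (la.nsymm n1) (onL_left B' B)
      ⟨_, mem_sup_right (mul_mem (inv_mem hy) hx), h4⟩ e.ne).1.toAd
  have hdec : ∀ t ∈ T, ∃ v ∈ vv B B', ∃ w ∈ vv B B'', t = v * w := fun t ht => by
    obtain ⟨x, hx, a', ha', rfl⟩ := (xa.smem n1 t).1 ht
    by_cases hxA : x ∈ om B
    · exact ⟨_, mul_mem (mem_sup_left hxA) (mem_sup_right ha'), 1, one_mem _, (mul_one _).symm⟩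
    obtain ⟨g, ⟨hg, hiv⟩, -⟩ := le.ivE n2 x hx hxA
    obtain ⟨y, hy, a, ha, hya⟩ := (xa.smem n1 g).1 (xb a1 a2 hg)
    have hg1 : g ≠ 1 := fun h => hxA ((la.mem_om B hB x).2 ⟨hx, by
      rw [Iv, h, one_mul, inv_one, mul_one] at hiv
      exact mul_eq_one_iff_eq_inv.2 hiv⟩)
    have hyA : y ∉ om B := fun h => by
      have h1 := hinf g (hya ▸ mul_mem (mem_sup_left h) (mem_sup_right ha)) (mem_sup_right hg)
      exact a2.ne (la.eq _ hB _ hB'' g (om_le _ h1) (om_le _ hg) hg1)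
    have hivy : Iv g y := by
      have h1 := sq _ hB'' g hg
      have h2 := eq_inv_of_mul_eq_one_left (sq _ hB' a ha)
      rw [hya] at h1
      rw [Iv, hya]
      calc y * a * y * (y * a)⁻¹ = y * a * (y * a⁻¹) * y⁻¹ := by group
        _ = y⁻¹ := by rw [← h2, h1, one_mul]
    have h3 := xa.one n2 g hg x hx hxA y hy hyA hiv hivy
    refine ⟨x * y * a * a', mul_mem (mul_mem (mem_sup_left h3) (mem_sup_right ha))
      (mem_sup_right ha'), ⁅a'⁻¹, g⁻¹⁆ * g⁻¹,
      mul_mem (mem_sup_left (e.br _ (inv_mem ha') _ (inv_mem hg))) (mem_sup_right (inv_mem hg)), ?_⟩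
    rw [commutatorElement_def, hya]
    group
  have hcm : ∀ v ∈ vv B B', ∀ w ∈ vv B B'', ∃ a ∈ om B', ∃ b ∈ om B'', ⁅v, w⁆ = ⁅a, b⁆ ∧
      (a = 1 → v ∈ om B) ∧ (b = 1 → w ∈ om B) := fun v hv w hw => by
    obtain ⟨i, hi, a, ha, rfl⟩ := (le.vmem a1 v).1 hv
    obtain ⟨j, hj, b, hb, rfl⟩ := (le.vmem a2 w).1 hw
    refine ⟨a, ha, b, hb, ?_, fun h => by simpa [h] using hi, fun h => by simpa [h] using hj⟩
    have ij : Commute i j := tb.comm B hB i (om_le _ hi) j (om_le _ hj)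
    have ia : Commute i a := le.adc a1 i hi a ha
    have ib : Commute i b := le.adc a2 i hi b hb
    have ja : Commute j a := le.adc a1 j hj a ha
    have jb : Commute j b := le.adc a2 j hj b hb
    calc ⁅i * a, j * b⁆ = i * (a * j * a⁻¹) * (a * b * a⁻¹) * (i⁻¹ * b⁻¹ * i) * (i⁻¹ * j⁻¹) := by
          rw [commutatorElement_def]; group
      _ = i * j * (⁅a, b⁆ * (i⁻¹ * j⁻¹)) := by
          rw [ja.symm.mul_inv_cancel, ← ib.inv_inv.symm.eq, commutatorElement_def]; group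
      _ = ⁅a, b⁆ := by
          have h1 : Commute ⁅a, b⁆ (i⁻¹ * j⁻¹) := by
            have h2 := om_le _ (e.br a ha b hb)
            exact tb.comm B hB _ h2 _ (mul_mem (inv_mem (om_le _ hi)) (inv_mem (om_le _ hj)))
          rw [h1.eq, ij.inv_inv.eq]; group
  have hbr : ∀ v ∈ vv B B', ∀ w ∈ vv B B'', ⁅v, w⁆ ∈ om B := fun v hv w hw => by
    obtain ⟨a, ha, b, hb, h, -⟩ := hcm v hv w hw
    exact h ▸ e.br a ha b hb
  have hfix : ∀ v ∈ vv B B', ∀ w ∈ vv B B'', v * w = w * v → v ∈ om B ∨ w ∈ om B :=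
    fun v hv w hw hc => by
    obtain ⟨a, ha, b, hb, h, h1, h2⟩ := hcm v hv w hw
    by_contra hn
    rw [not_or] at hn
    rw [commutatorElement_eq_one_iff_mul_comm.2 hc, eq_comm,
      commutatorElement_eq_one_iff_mul_comm] at h
    rcases ad_of hB'' hB' (om_le _ hb) (fun k => hn.2 (h2 k))
      (la.cent _ hB' a (om_le _ ha) (fun k => hn.1 (h1 k)) b h.symm) with k | k
    · exact e.ne k.symm
    · exact e.na (la.symm k)
  have hidx : ∀ {Q}, Ad Ω B Q → (om B).relIndex (vv B Q) = 4 := fun {Q} h => by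
    have h1 := H3.card_mul_relIndex (K := vv B Q) (le_sup_left : om B ≤ vv B Q)
    rw [le.vcard h, c4] at h1
    omega
  have hH : ∀ P ∈ Ω, ∀ X : Subgroup G, X ≤ normalClosure (om B : Set G) → ∀ g : G,
      cj g X ≤ normalClosure (om B : Set G) := fun P _ X hX g =>
    H83.cj_le_of_norm hX (by rw [normalizer_eq_top]; exact mem_top g)
  have hVH : ∀ Q ∈ Ω, vv B Q ≤ normalClosure (om B : Set G) := fun Q hQ => by
    obtain ⟨g, rfl⟩ := tb.trans B hB Q hQ
    exact sup_le le_normalClosure (om_cj g B ▸ hH B hB _ le_normalClosure g)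
  have hTH : T ≤ normalClosure (om B : Set G) := fun t ht => by
    obtain ⟨v, hv, w, hw, rfl⟩ := hdec t ht
    exact mul_mem (hVH _ hB' hv) (hVH _ hB'' hw)
  have hPH : ∀ Q ∈ Ω, Q ≤ normalClosure (om B : Set G) := fun Q hQ => by
    obtain ⟨g, rfl⟩ := tb.trans B hB Q hQ
    exact hH B hB _ (le_sup_left.trans hTH) g
  have hnV : ∀ {Q}, Nc Ω B Q →
      ∃ h ∈ normalClosure (om B : Set G), h ∈ N[vv B Q] ∧ h ∉ N[om B] := fun {Q} n => by
    obtain ⟨x, hx, h1⟩ := tb.nel Q n.r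
    refine ⟨x, hPH Q n.r hx, le.vnorm n.toAd (mem_sup_right hx), fun h => h1 (sq Q n.r x ?_)⟩
    rw [← le.ax (la.nsymm n)]
    exact ⟨hx, la.nom B hB h⟩
  have hpt : ∀ {Q}, Nc Ω B Q → ∀ v ∈ vv B Q, ∃ P ∈ Ω, v ∈ om P := fun {Q} n v hv => by
    by_cases h : v ∈ om B
    · exact ⟨B, hB, h⟩
    · obtain ⟨x, -, hx⟩ := cx.lb.part n (q4.trans c4.symm) v hv h
      exact ⟨_, tb.conj Q n.r x, om_cj x Q ▸ hx⟩
  refine ⟨S, T, vv B B', vv B B'', om B, N[B], oo B, gm.o2, gb.odd, ⟨hS, fun y hy g hg => ?_⟩,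
    hVT, hVT', hdec, le_antisymm (le_inf le_sup_left le_sup_left) fun v hv => hinf v hv.1 hv.2,
    le.vsq a1, le.vsq a2, hbr, hfix, c4, hidx a1, hidx a2, hTH, fun a ha h1 v hv hv1 => ?_,
    hnV n1, hnV n2, la.com B hB, gb.two B hB, gb.nrm B hB, gb.cent B hB⟩
  · obtain ⟨v, hv, w, hw, hvw⟩ := hdec y hy
    have hyy : y * y = ⁅v, w⁆ := by
      rw [commutatorElement_def, ← eq_inv_of_mul_eq_one_left (le.vsq a1 v hv),
        ← eq_inv_of_mul_eq_one_left (le.vsq a2 w hw), hvw, mul_assoc (v * w)]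
    by_cases h2 : y * y = 1
    · by_cases h1 : y = 1
      · simp [h1]
      obtain ⟨P, hP, hyP⟩ : ∃ P ∈ Ω, y ∈ om P := by
        rcases hfix v hv w hw (commutatorElement_eq_one_iff_mul_comm.1 (hyy ▸ h2)) with h | h
        · exact hpt n2 y (hvw ▸ mul_mem (mem_sup_left h) hw)
        · exact hpt n1 y (hvw ▸ mul_mem hv (mem_sup_left h))
      have h3 : g * y * g⁻¹ ∈ om (cj g P) := om_cj g P ▸ conj_mem_cj hyP
      rcases ad_of (tb.conj P hP g) hB (om_le _ h3) (by simpa using h1) (hSN hg) with k | k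
      · exact mem_sup_left (om_le _ (k ▸ h3))
      · exact xb a1 (la.symm k) h3
    · have h3 : g * (y * y) * g⁻¹ ∈ cj g B := conj_mem_cj (om_le _ (hyy ▸ hbr v hv w hw))
      have h4 : g * (y * y) * g⁻¹ = g * y * g⁻¹ * (g * y * g⁻¹) := by group
      rcases ad_of (tb.conj B hB g) hB h3 (by simpa using h2) (hSN (h4 ▸ mul_mem hg hg))
        with k | k
      · exact hNT g (H83.cj_eq_self_iff.1 k) y hy
      · exfalso
        have n := cx.nc _ _ k
        have h5 : cj g T ≤ cj g B ⊔ om B := by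
          rw [hT, H83.cj_sup, ← om_cj]
          exact sup_le le_sup_left (xb k (a1.cj tb g))
        obtain ⟨x, hx, a, ha, h6⟩ := (xa.smem n _).1 (h5 (conj_mem_cj hy))
        have h7 : x ∈ om (cj g B) := by
          rw [← le.ax n]
          exact ⟨hx, (mul_mem_cancel_right (le_normalizer (om_le _ ha))).1 (h6 ▸ hSN hg)⟩
        have h8 := le.vsq k _ (mul_mem (mem_sup_left h7) (mem_sup_right ha))
        rw [← h6, ← h4] at h8
        exact h2 (by simpa using h8)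
  · rcases hv with hv | hv
    · obtain ⟨h, hh, k⟩ := xa.fus n1 a ha h1 v hv hv1
      exact ⟨h, sup_le (hPH _ hB) (hPH _ hB') hh, k⟩
    · obtain ⟨h, hh, k⟩ := xa.fus n2 a ha h1 v hv hv1
      exact ⟨h, sup_le (hPH _ hB) (hPH _ hB'') hh, k⟩

end Cfsg.Agent.H7.TbX
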