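import Cfsg.Agent.H74.UVDefs

/-!
Project UV, piece QS: an `r`-subgroup of `GL_11` normalised by a Singer element of prime order
at least 23, whose fixed points are scalar, is scalar.
-/

set_option autoImplicit false

namespace Cfsg.Agent.H7.UvQs

open Cfsg Module Cfsg.Agent.H31 Cfsg.Agent.H77.Sg Cfsg.Agent.H74.UV

universe u

section

variable {E K : Type u} [Field E] [Field K] [Algebra E K]

lemma sc_comm {a : K ≃ₗ[E] K} (ha : Sc a) (g : K ≃ₗ[E] K) : g * a = a * g := by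
  obtain ⟨c, hc⟩ := ha
  ext x
  simp [LinearEquiv.mul_apply, hc]

variable (E K) in
/-- The scalar maps. -/
def SG : Subgroup (K ≃ₗ[E] K) where
  carrier := {g | Sc g}
  one_mem' := ⟨1, by simp⟩
  mul_mem' := by
    rintro a b ⟨c, hc⟩ ⟨d, hd⟩
    exact ⟨c * d, fun x => by rw [LinearEquiv.mul_apply, hc, hd, mul_smul]⟩
  inv_mem' := by
    rintro a ⟨c, hc⟩
    have hc0 : c ≠ 0 := by
      rintro rfl
      have := hc 1
      simp at this
    refine ⟨c⁻¹, fun x => ?_⟩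
    apply a.injective
    have h1 : a (a⁻¹ x) = x := a.apply_symm_apply x
    rw [h1, hc, smul_smul, mul_inv_cancel₀ hc0, one_smul]

lemma mem_SG {g : K ≃ₗ[E] K} : g ∈ SG E K ↔ Sc g := Iff.rfl

instance SG_normal : (SG E K).Normal where
  conj_mem n hn g := by
    rw [sc_comm hn g, mul_inv_cancel_right]
    exact hn

lemma sc_pow {a : K ≃ₗ[E] K} {c : E} (hc : ∀ x, a x = c • x) (n : ℕ) :
    ∀ x, (a ^ n) x = c ^ n • x := by
  induction n with
  | zero => simp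
  | succ n ih =>
    intro x
    rw [pow_succ, LinearEquiv.mul_apply, ih, hc, smul_smul, pow_succ]

/-- A non-trivial scalar commutator. -/
lemma comm_sc [FiniteDimensional E K] (h7 : finrank E K = 11) {g h : K ≃ₗ[E] K}
    (hs : Sc (h * g * h⁻¹ * g⁻¹)) (hne : h * g ≠ g * h) :
    LinearMap.trace E K (g : K →ₗ[E] K) = 0 ∧ (11 : E) ≠ 0 ∧ (h * g * h⁻¹ * g⁻¹) ^ 11 = 1 := by
  obtain ⟨c, hc⟩ := hs
  have hc1 : c ≠ 1 := by
    rintro rfl
    apply hne
    have : h * g * h⁻¹ * g⁻¹ = 1 := by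
      ext x
      rw [hc]; simp
    calc h * g = (h * g * h⁻¹ * g⁻¹) * g * h := by group
      _ = g * h := by rw [this, one_mul]
  have hlin : ((h * g * h⁻¹ * g⁻¹ : K ≃ₗ[E] K) : K →ₗ[E] K) = c • LinearMap.id := by
    ext x
    simpa using hc x
  have hdet : c ^ 11 = 1 := by
    have h1 : LinearEquiv.det (h * g * h⁻¹ * g⁻¹) = 1 := by
      simp only [map_mul, map_inv]
      rw [mul_inv_cancel_comm, mul_inv_cancel]
    have h2 := LinearEquiv.coe_det (h * g * h⁻¹ * g⁻¹)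
    rw [h1, hlin, LinearMap.det_smul, h7] at h2
    simpa using h2.symm
  refine ⟨?_, ?_, ?_⟩
  · have h1 : (h.conj (g : K →ₗ[E] K)) = c • (g : K →ₗ[E] K) := by
      ext x
      have := hc (g x)
      simp only [LinearEquiv.mul_apply] at this
      have h2 : g⁻¹ (g x) = x := g.symm_apply_apply x
      rw [h2] at this
      simpa [LinearEquiv.conj_apply] using this
    have h2 := LinearMap.trace_conj' (g : K →ₗ[E] K) h
    rw [h1, map_smul, smul_eq_mul] at h2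
    have h3 : (c - 1) * LinearMap.trace E K (g : K →ₗ[E] K) = 0 := by
      rw [sub_mul, h2, one_mul, sub_self]
    exact (mul_eq_zero.1 h3).resolve_left (sub_ne_zero.2 hc1)
  · intro h0
    haveI : Fact (Nat.Prime 11) := ⟨by norm_num⟩
    haveI : CharP E 11 := (CharP.charP_iff_prime_eq_zero (by norm_num)).2 (by exact_mod_cast h0)
    have : (c - 1) ^ 11 = 0 := by rw [sub_pow_char, hdet]; simp
    exact hc1 (sub_eq_zero.1 (pow_eq_zero_iff (by norm_num) |>.1 this))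
  · ext x
    rw [sc_pow hc, hdet]
    simp

/-- Fixed points modulo scalars are fixed points. -/
lemma fix_sc {Q : Subgroup (K ≃ₗ[E] K)} {r l : ℕ} (hr : r.Prime) (hl : l.Prime) (hrl : r ≠ l)
    (hQ : IsPGroup r Q) {σ g : K ≃ₗ[E] K} (hσ : σ ^ l = 1) (hg : g ∈ Q) (hg' : σ * g * σ⁻¹ ∈ Q)
    (hs : Sc (σ * g * σ⁻¹ * g⁻¹)) : σ * g = g * σ := by
  set z := σ * g * σ⁻¹ * g⁻¹ with hz
  have hzQ : z ∈ Q := Q.mul_mem hg' (Q.inv_mem hg)
  have h1 : σ * g = z * g * σ := by rw [hz]; group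
  have h2 : ∀ n : ℕ, σ ^ n * g = z ^ n * g * σ ^ n := by
    intro n
    induction n with
    | zero => simp
    | succ n ih =>
      have hzn : Sc (z ^ n) := (SG E K).pow_mem hs n
      calc σ ^ (n + 1) * g = σ * (σ ^ n * g) := by rw [pow_succ', mul_assoc]
        _ = (σ * z ^ n) * g * σ ^ n := by rw [ih]; group
        _ = z ^ n * (σ * g) * σ ^ n := by rw [sc_comm hzn σ]; group
        _ = z ^ (n + 1) * g * σ ^ (n + 1) := by rw [h1, pow_succ, pow_succ']; group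
  have h3 : z ^ l = 1 := by
    have := h2 l
    rw [hσ, one_mul, mul_one] at this
    exact mul_eq_right.1 this.symm
  obtain ⟨k, hk⟩ := hQ ⟨z, hzQ⟩
  have hk' : z ^ r ^ k = 1 := congrArg Subtype.val hk
  have hcop : (r ^ k).Coprime l := ((Nat.coprime_primes hr hl).2 hrl).pow_left k
  have h4 : z = 1 := by
    have := (pow_gcd_eq_one.2 ⟨hk', h3⟩ : z ^ Nat.gcd (r ^ k) l = 1)
    rwa [hcop, pow_one] at this
  rw [h1, h4, one_mul]

/-- The elements of `Q` that are central modulo scalars. -/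
def MM (Q : Subgroup (K ≃ₗ[E] K)) : Subgroup (K ≃ₗ[E] K) :=
  Q ⊓ (Subgroup.centralizer (Q.map (QuotientGroup.mk' (SG E K)) : Set _)).comap
    (QuotientGroup.mk' (SG E K))

lemma pi_eq {x y : K ≃ₗ[E] K} :
    QuotientGroup.mk' (SG E K) x = QuotientGroup.mk' (SG E K) y ↔ Sc (x * y⁻¹) := by
  rw [QuotientGroup.mk'_apply, QuotientGroup.mk'_apply, QuotientGroup.eq_iff_div_mem,
    div_eq_mul_inv, mem_SG]

lemma mem_MM {Q : Subgroup (K ≃ₗ[E] K)} {g : K ≃ₗ[E] K} :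
    g ∈ MM Q ↔ g ∈ Q ∧ ∀ h ∈ Q, Sc (h * g * h⁻¹ * g⁻¹) := by
  have e : ∀ h : K ≃ₗ[E] K, h * g * h⁻¹ * g⁻¹ = (h * g) * (g * h)⁻¹ := fun h => by group
  simp only [MM, Subgroup.mem_inf, Subgroup.mem_comap, Subgroup.mem_centralizer_iff]
  refine and_congr_right fun _ => ⟨fun H h hh => ?_, fun H => ?_⟩
  · rw [e, ← pi_eq, map_mul, map_mul]
    exact H _ ⟨h, hh, rfl⟩
  · rintro _ ⟨h, hh, rfl⟩
    rw [← map_mul, ← map_mul, pi_eq, ← e]
    exact H h hh

lemma MM_inv {Q : Subgroup (K ≃ₗ[E] K)} {τ : K ≃ₗ[E] K} (h1 : ∀ a ∈ Q, τ * a * τ⁻¹ ∈ Q)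
    (h2 : ∀ a ∈ Q, τ⁻¹ * a * τ ∈ Q) : ∀ a ∈ MM Q, τ * a * τ⁻¹ ∈ MM Q := by
  intro a ha
  rw [mem_MM] at ha ⊢
  refine ⟨h1 a ha.1, fun h hh => ?_⟩
  have := (SG_normal (E := E) (K := K)).conj_mem _ (ha.2 _ (h2 h hh)) τ
  rw [mem_SG] at this
  convert this using 1
  group

lemma MM_ne [Finite K] {Q : Subgroup (K ≃ₗ[E] K)} {r : ℕ} (hr : r.Prime) (hQ : IsPGroup r Q)
    {a : K ≃ₗ[E] K} (ha : a ∈ Q) (hs : ¬ Sc a) : ∃ g ∈ MM Q, ¬ Sc g := by
  haveI : Fact r.Prime := ⟨hr⟩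
  haveI : Finite (K ≃ₗ[E] K) := DFunLike.finite _
  have hb := hQ.map (QuotientGroup.mk' (SG E K))
  haveI : Nontrivial (Q.map (QuotientGroup.mk' (SG E K))) := by
    refine ⟨⟨⟨_, a, ha, rfl⟩, 1, fun h => hs ?_⟩⟩
    have h1 : QuotientGroup.mk' (SG E K) a = 1 := congrArg Subtype.val h
    exact (QuotientGroup.eq_one_iff a).1 h1
  haveI := hb.center_nontrivial
  obtain ⟨⟨⟨_, g, hg, rfl⟩, hc⟩, hne⟩ := exists_ne (1 : Subgroup.center
    (Q.map (QuotientGroup.mk' (SG E K))))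
  refine ⟨g, ⟨hg, ?_⟩, fun hsc => hne ?_⟩
  · intro y hy
    have := Subgroup.mem_center_iff.1 hc ⟨y, hy⟩
    exact congrArg Subtype.val this
  · apply Subtype.ext
    apply Subtype.ext
    exact (QuotientGroup.eq_one_iff g).2 hsc

/-- The trace form bounds the number of classes modulo scalars. -/
lemma card_le [FiniteDimensional E K] (h7 : finrank E K = 11) (h0 : (11 : E) ≠ 0)
    {M : Subgroup (K ≃ₗ[E] K)}
    (hM : ∀ g ∈ M, ¬ Sc g → LinearMap.trace E K (g : K →ₗ[E] K) = 0) :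
    Nat.card (M.map (QuotientGroup.mk' (SG E K))) ≤ 121 := by
  classical
  have hex : ∀ x : M.map (QuotientGroup.mk' (SG E K)), ∃ g ∈ M,
      QuotientGroup.mk' (SG E K) g = x := fun x => x.2
  choose f hf hf' using hex
  have hli : LinearIndependent E fun x => ((f x : K ≃ₗ[E] K) : K →ₗ[E] K) := by
    rw [linearIndependent_iff']
    intro t c hc y hy
    have h1 := congrArg (fun φ : K →ₗ[E] K =>
      LinearMap.trace E K (φ * (((f y)⁻¹ : K ≃ₗ[E] K) : K →ₗ[E] K))) hc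
    simp only [zero_mul, map_zero] at h1
    rw [Finset.sum_mul, map_sum, Finset.sum_eq_single y] at h1
    · have h2 : ((f y : K ≃ₗ[E] K) : K →ₗ[E] K) * (((f y)⁻¹ : K ≃ₗ[E] K) : K →ₗ[E] K) =
          LinearMap.id := by
        ext x
        exact (f y).apply_symm_apply x
      rw [smul_mul_assoc, h2, map_smul, LinearMap.trace_id, h7, smul_eq_mul] at h1
      exact (mul_eq_zero.1 h1).resolve_right (by exact_mod_cast h0)
    · intro x _ hxy
      have h2 : ¬ Sc (f x * (f y)⁻¹) := by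
        rw [← pi_eq, hf', hf']
        exact fun h => hxy (Subtype.ext h)
      have h3 := hM _ (M.mul_mem (hf x) (M.inv_mem (hf y))) h2
      rw [smul_mul_assoc, map_smul]
      have h4 : ((f x : K ≃ₗ[E] K) : K →ₗ[E] K) * (((f y)⁻¹ : K ≃ₗ[E] K) : K →ₗ[E] K) =
          ((f x * (f y)⁻¹ : K ≃ₗ[E] K) : K →ₗ[E] K) := rfl
      rw [h4, h3, smul_zero]
    · intro h
      exact absurd hy h
  have := hli.cardinalMk_le_finrank
  rw [Module.finrank_linearMap, h7] at this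
  have h2 := Cardinal.toNat_le_toNat this (Cardinal.natCast_lt_aleph0)
  rw [Cardinal.toNat_natCast] at h2
  exact h2

/-- Counting modulo `l`. -/
lemma card_mod {H : Type u} [Group H] [Finite H] {N : Subgroup H} {l : ℕ} (hl : l.Prime) {τ : H}
    (hτ : τ ^ l = 1) (hinv : ∀ x ∈ N, τ * x * τ⁻¹ ∈ N) (hfix : ∀ x ∈ N, τ * x * τ⁻¹ = x → x = 1) :
    Nat.card N ≡ 1 [MOD l] := by
  classical
  haveI : Fact l.Prime := ⟨hl⟩
  haveI : Fintype N := Fintype.ofFinite _
  let f : Function.End N := fun x => ⟨τ * x * τ⁻¹, hinv x x.2⟩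
  have hfn : ∀ (n : ℕ) (x : N), ((f ^ n) x : H) = τ ^ n * x * (τ ^ n)⁻¹ := by
    intro n
    induction n with
    | zero => intro x; simp [Function.End.one_def]
    | succ n ih =>
      intro x
      have : (f ^ (n + 1)) x = (f ^ n) (f x) := by rw [pow_succ]; rfl
      rw [this, ih, pow_succ]
      show τ ^ n * (τ * x * τ⁻¹) * (τ ^ n)⁻¹ = _
      group
  have hf : f ^ l ^ 1 = 1 := by
    funext x
    apply Subtype.ext
    rw [pow_one, hfn, hτ]
    simp [Function.End.one_def]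
  have h1 := Equiv.Perm.card_fixedPoints_modEq hf
  have h2 : Fintype.card (Function.fixedPoints f) = 1 := by
    rw [Fintype.card_eq_one_iff]
    refine ⟨⟨1, Subtype.ext (by simp [f])⟩, fun y => ?_⟩
    apply Subtype.ext
    apply Subtype.ext
    exact hfix _ y.1.2 (congrArg Subtype.val y.2)
  rw [Nat.card_eq_fintype_card]
  rwa [h2] at h1

end

theorem qs (ab : AbStmt.{u}) : QsStmt.{u} := by
  intro E K _ _ _ _ _ Q r l s h7 hr hl h29 hrl hs hsE hQ hinv hfix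
  classical
  haveI : Fact r.Prime := ⟨hr⟩
  haveI : FiniteDimensional E K := Module.finite_of_finrank_pos (by omega)
  haveI : Finite (K ≃ₗ[E] K) := DFunLike.finite _
  have hσ : mulH E K s ^ l = 1 := by rw [← map_pow, ← hs, pow_orderOf_eq_one, map_one]
  have hab := fun A => ab E K A r l s h7 hr hl h29 hrl hs hsE
  generalize mulH E K s = σ at hinv hfix hσ hab
  have hinvn : ∀ n : ℕ, ∀ a ∈ Q, σ ^ n * a * (σ ^ n)⁻¹ ∈ Q := by
    intro n
    induction n with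
    | zero => simp
    | succ n ih =>
      intro a ha
      have := hinv _ (ih a ha)
      convert this using 1
      rw [pow_succ']
      group
  have hinv' : ∀ a ∈ Q, σ⁻¹ * a * σ ∈ Q := by
    intro a ha
    have h1 : σ ^ (l - 1) = σ⁻¹ := by
      rw [eq_inv_iff_mul_eq_one, ← pow_succ, Nat.sub_add_cancel hl.one_le, hσ]
    have := hinvn (l - 1) a ha
    rwa [h1, inv_inv] at this
  have hM1 := MM_inv hinv hinv'
  have hM2 : ∀ a ∈ MM Q, σ⁻¹ * a * σ ∈ MM Q := by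
    have := MM_inv (Q := Q) (τ := σ⁻¹) (by simpa using hinv') (by simpa using hinv)
    simpa using this
  have hMQ : MM Q ≤ Q := inf_le_left
  -- the centre of `M` is scalar
  have hZ : ∀ g ∈ MM Q, (∀ h ∈ MM Q, h * g = g * h) → Sc g := by
    intro g hg hc
    refine hfix g (hMQ hg) (hab (MM Q ⊓ Subgroup.centralizer (MM Q : Set (K ≃ₗ[E] K)))
      (hQ.to_le (inf_le_left.trans hMQ)) ?_ ?_ g ⟨hg, fun h hh => hc h hh⟩)
    · intro a ha b hb
      exact hb.2 a ha.1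
    · intro a ha
      refine ⟨hM1 a ha.1, fun h hh => ?_⟩
      have := ha.2 _ (hM2 h hh)
      calc h * (σ * a * σ⁻¹) = σ * (σ⁻¹ * h * σ * a) * σ⁻¹ := by group
        _ = σ * a * σ⁻¹ * h := by rw [this]; group
  have hkey : ∀ g ∈ MM Q, ¬ Sc g →
      LinearMap.trace E K (g : K →ₗ[E] K) = 0 ∧ (11 : E) ≠ 0 ∧ r = 11 := by
    intro g hg hsc
    have : ¬ ∀ h ∈ MM Q, h * g = g * h := fun H => hsc (hZ g hg H)
    push Not at this
    obtain ⟨h, hh, hne⟩ := this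
    obtain ⟨t1, t2, t3⟩ := comm_sc h7 ((mem_MM.1 hg).2 h (hMQ hh)) hne
    refine ⟨t1, t2, ?_⟩
    by_contra hr7
    have hzQ : h * g * h⁻¹ * g⁻¹ ∈ Q := Q.mul_mem (Q.mul_mem (Q.mul_mem (hMQ hh) (hMQ hg))
      (Q.inv_mem (hMQ hh))) (Q.inv_mem (hMQ hg))
    obtain ⟨k, hk⟩ := hQ ⟨_, hzQ⟩
    have hk' : (h * g * h⁻¹ * g⁻¹) ^ r ^ k = 1 := congrArg Subtype.val hk
    have hcop : (r ^ k).Coprime 11 := ((Nat.coprime_primes hr (by norm_num)).2 hr7).pow_left k
    have h4 := (pow_gcd_eq_one.2 ⟨hk', t3⟩ : (h * g * h⁻¹ * g⁻¹) ^ Nat.gcd (r ^ k) 11 = 1)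
    rw [hcop, pow_one] at h4
    apply hne
    calc h * g = (h * g * h⁻¹ * g⁻¹) * g * h := by group
      _ = g * h := by rw [h4, one_mul]
  by_contra hne
  push Not at hne
  obtain ⟨a, ha, hsa⟩ := hne
  obtain ⟨g, hg, hsg⟩ := MM_ne hr hQ ha hsa
  obtain ⟨-, h70, hr7⟩ := hkey g hg hsg
  have hle := card_le h7 h70 fun g hg hsg => (hkey g hg hsg).1
  have hmod : Nat.card ((MM Q).map (QuotientGroup.mk' (SG E K))) ≡ 1 [MOD l] := by
    refine card_mod hl (τ := QuotientGroup.mk' (SG E K) σ) (by rw [← map_pow, hσ, map_one]) ?_ ?_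
    · rintro _ ⟨x, hx, rfl⟩
      exact ⟨_, hM1 x hx, by simp only [map_mul, map_inv]⟩
    · rintro _ ⟨x, hx, rfl⟩ h
      rw [← map_inv, ← map_mul, ← map_mul, pi_eq] at h
      exact (QuotientGroup.eq_one_iff x).2
        (hfix x (hMQ hx) (fix_sc hr hl hrl hQ hσ (hMQ hx) (hinv x (hMQ hx)) h))
  obtain ⟨k, hk⟩ := IsPGroup.iff_card.1 ((hQ.to_le hMQ).map (QuotientGroup.mk' (SG E K)))
  have hk0 : k ≠ 0 := by
    rintro rfl
    rw [pow_zero, Subgroup.card_eq_one] at hk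
    have : QuotientGroup.mk' (SG E K) g ∈ (MM Q).map (QuotientGroup.mk' (SG E K)) := ⟨g, hg, rfl⟩
    rw [hk, Subgroup.mem_bot] at this
    exact hsg ((QuotientGroup.eq_one_iff g).1 this)
  rw [hk, hr7] at hle hmod
  have hk2 : k ≤ 2 := by
    by_contra h
    have := Nat.pow_le_pow_right (by norm_num : 0 < 11) (show 3 ≤ k by omega)
    omega
  have hd := (Nat.modEq_iff_dvd' (Nat.one_le_pow _ _ (by norm_num))).1 hmod.symm
  have h48 : l ∣ 120 := by
    interval_cases k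
    · exact absurd rfl hk0
    · exact hd.trans (by norm_num)
    · exact hd
  have := Nat.le_of_dvd (by norm_num) h48
  interval_cases l <;> first | omega | (norm_num at hl)

end Cfsg.Agent.H7.UvQs
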